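import Cfsg.Agent.H933.ExtraCount

set_option autoImplicit false

/-!
The eigenspaces of an element of prime order normalising a group of class two acting absolutely
irreducibly: the bounds `n/2`.
-/

namespace Cfsg.Agent.H933

open Module

variable {F : Type*} [Field F] {V : Type*} [AddCommGroup V] [Module F V]
variable {G : Type*} [Group G] {ρ : G →* Module.End F V}

theorem isZ_iff_comm {u v : G} {c : F} : IsZ ρ u v c ↔ ρ (u * v * u⁻¹ * v⁻¹) = c • 1 := by
  unfold IsZ
  constructor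
  · intro h
    have : ρ (u * v * u⁻¹ * v⁻¹) = ρ u * ρ v * ρ (v * u)⁻¹ := by
      rw [← map_mul, ← map_mul]; congr 1; group
    rw [this, h, smul_mul_assoc, ← map_mul, rho_mul_inv]
  · intro h
    have : ρ u * ρ v = ρ (u * v * u⁻¹ * v⁻¹) * (ρ v * ρ u) := by
      rw [← map_mul, ← map_mul, ← map_mul]; congr 1; group
    rw [this, h, smul_mul_assoc, one_mul]

theorem fix_inv {u : G} {t : V} (h : ρ u t = t) : ρ u⁻¹ t = t := by
  conv_lhs => rw [← h]
  rw [← Module.End.mul_apply, rho_inv_mul]; rfl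

theorem fix_mul {u v : G} {t : V} (h : ρ u t = t) (h' : ρ v t = t) : ρ (u * v) t = t := by
  rw [map_mul, Module.End.mul_apply, h', h]

theorem fix_conj {g u : G} {t : V} {c : F} (hc : c ≠ 0) (hg : ρ g t = c • t) (h : ρ u t = t) :
    ρ (g * u * g⁻¹) t = t := by
  have h1 : ρ g⁻¹ t = c⁻¹ • t := by
    have : ρ g⁻¹ (ρ g t) = c • ρ g⁻¹ t := by rw [hg, map_smul]
    rw [← Module.End.mul_apply, rho_inv_mul, Module.End.one_apply] at this
    rw [eq_inv_smul_iff₀ hc]
    exact this.symm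
  rw [map_mul, map_mul, Module.End.mul_apply, Module.End.mul_apply, h1, map_smul, h, map_smul, hg,
    smul_smul, inv_mul_cancel₀ hc, one_smul]

theorem fix_conj' {g u : G} {t : V} {c : F} (hc : c ≠ 0) (hg : ρ g t = c • t) (h : ρ u t = t) :
    ρ (g⁻¹ * u * g) t = t := by
  rw [map_mul, map_mul, Module.End.mul_apply, Module.End.mul_apply, hg, map_smul, h, ← hg,
    ← Module.End.mul_apply, rho_inv_mul]; rfl

section setup

variable {H : Subgroup G} {r : ℕ} (S : Setup ρ H r)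

include S

/-- Under `2 w > n`, scalar commutators with `g` are trivial. -/
theorem Setup.comm_eq_one_of_scalar [FiniteDimensional F V] {g : G} {c : F}
    (hw : Module.finrank F V < 2 * Module.finrank F (Module.End.eigenspace (ρ g) c))
    {v : G} (hv : v ∈ H) (h : ∃ b : F, ρ (g * v * g⁻¹ * v⁻¹) = b • 1) : IsZ ρ g v 1 := by
  obtain ⟨b, hb⟩ := h
  have h1 := isZ_iff_comm.2 hb
  by_cases hb1 : b = 1
  · rwa [hb1] at h1
  · exfalso
    have h2 := S.eig_le_of_isZ hv h1 hb1 c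
    have h3 := S.prime.two_le
    have h4 : 2 * Module.finrank F (Module.End.eigenspace (ρ g) c) ≤
      r * Module.finrank F (Module.End.eigenspace (ρ g) c) := Nat.mul_le_mul_right _ h3
    omega

/-- Under `2 w > n` and `g` not scalar, some commutator `[g, v]` is not scalar. -/
theorem Setup.exists_comm_not_scalar [FiniteDimensional F V] {g : G} {c : F}
    (hw : Module.finrank F V < 2 * Module.finrank F (Module.End.eigenspace (ρ g) c))
    (hg : ¬ ∃ b : F, ρ g = b • 1) :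
    ∃ v ∈ H, ¬ ∃ b : F, ρ (g * v * g⁻¹ * v⁻¹) = b • 1 := by
  by_contra hcon
  push Not at hcon
  apply hg
  apply S.abs
  intro v hv
  exact S.comm_eq_one_of_scalar hw hv (hcon v hv)

omit S in
theorem exists_common [FiniteDimensional F V] {g : G} {c : F}
    (hw : Module.finrank F V < 2 * Module.finrank F (Module.End.eigenspace (ρ g) c)) (v : G) :
    ∃ t : V, t ≠ 0 ∧ ρ g t = c • t ∧ ρ (g * v * g⁻¹ * v⁻¹) t = t := by
  set W := Module.End.eigenspace (ρ g) c with hW
  have h1 := Submodule.finrank_sup_add_finrank_inf_eq W (W.map (ρ v))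
  have h2 := Submodule.finrank_le (W ⊔ W.map (ρ v))
  rw [finrank_map_rho] at h1
  have h3 : W ⊓ W.map (ρ v) ≠ ⊥ := by
    intro h
    rw [h, finrank_bot] at h1
    omega
  obtain ⟨t, ht, ht0⟩ := Submodule.exists_mem_ne_zero_of_ne_bot h3
  refine ⟨t, ht0, ?_, ?_⟩
  · have := ht.1
    rwa [SetLike.mem_coe, hW, Module.End.mem_eigenspace_iff] at this
  · have := inf_le_eig_comm ρ g v c ht
    rwa [Module.End.mem_eigenspace_iff, one_smul] at this

omit S in
theorem c_ne_zero [FiniteDimensional F V] {g : G} {c : F}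
    (hw : Module.finrank F V < 2 * Module.finrank F (Module.End.eigenspace (ρ g) c)) : c ≠ 0 := by
  rintro rfl
  rw [eig_eq_bot_of_zero, finrank_bot] at hw
  omega

/-- **Coprime case.** -/
theorem Setup.coprime_case [FiniteDimensional F V] [Finite G] {g : G}
    (hgH : ∀ u ∈ H, g * u * g⁻¹ ∈ H) (hgH' : ∀ u ∈ H, g⁻¹ * u * g ∈ H)
    {p : ℕ} (hp : p.Prime) (hp3 : 3 ≤ p) (hpr : p ≠ r) (hgp : g ^ p = 1)
    (hg : ¬ ∃ b : F, ρ g = b • 1) (c : F) :
    2 * Module.finrank F (Module.End.eigenspace (ρ g) c) ≤ Module.finrank F V := by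
  by_contra hcon
  push Not at hcon
  have hnt := S.nontrivial
  have hc := c_ne_zero hcon
  obtain ⟨v, hv, hvs⟩ := S.exists_comm_not_scalar hcon hg
  obtain ⟨t, ht0, htg, htv⟩ := exists_common hcon v
  -- the inverse commutator
  set x := v * g * v⁻¹ * g⁻¹ with hx
  have hxinv : x = (g * v * g⁻¹ * v⁻¹)⁻¹ := by rw [hx]; group
  have hxH : x ∈ H := by
    have : x = v * (g * v⁻¹ * g⁻¹) := by rw [hx]; group
    rw [this]
    exact H.mul_mem hv (hgH _ (H.inv_mem hv))
  have hxt : ρ x t = t := by rw [hxinv]; exact fix_inv htv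
  have hxs : ¬ ∃ b : F, ρ x = b • 1 := by
    intro hb
    have h1 := eq_one_of_fix ht0 hxt hb
    apply hvs
    refine ⟨1, ?_⟩
    have h2 : g * v * g⁻¹ * v⁻¹ = x⁻¹ := by rw [hxinv, inv_inv]
    rw [h2, one_smul]
    calc ρ x⁻¹ = ρ x * ρ x⁻¹ := by rw [h1, one_mul]
      _ = 1 := rho_mul_inv ρ x
  let X : Set G := {u | u ∈ H ∧ ρ u t = t ∧ (u * g) ^ p = 1}
  have hxX : x ∈ X := by
    refine ⟨hxH, hxt, ?_⟩
    have : x * g = v * g * v⁻¹ := by rw [hx]; group
    rw [this, conj_pow, hgp]; group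
  have hX : X ⊆ H := fun u hu => hu.1
  have hgX : ∀ u ∈ X, g * u * g⁻¹ ∈ X := by
    rintro u ⟨h1, h2, h3⟩
    refine ⟨hgH u h1, fix_conj hc htg h2, ?_⟩
    have : g * u * g⁻¹ * g = g * (u * g) * g⁻¹ := by group
    rw [this, conj_pow, h3]; group
  have hgX' : ∀ u ∈ X, g⁻¹ * u * g ∈ X := by
    rintro u ⟨h1, h2, h3⟩
    refine ⟨hgH' u h1, fix_conj' hc htg h2, ?_⟩
    have : g⁻¹ * u * g * g = g⁻¹ * (u * g) * g⁻¹⁻¹ := by group
    rw [this, conj_pow, h3]; group
  obtain ⟨s, d, hN, hwd, hs⟩ := S.count hX ht0 (fun u hu => hu.2.1) hgH hgH' hgX hgX' hp hgp hc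
  set I : Set (X → F) := Set.range (fun y : H => chi ρ X y) with hI
  have hIfin : I.Finite := Set.finite_range _
  -- the fixed characters
  have hfix : {χ ∈ I | ∀ u : G, ∀ hu : u ∈ X, χ ⟨g⁻¹ * u * g, hgX' u hu⟩ = χ ⟨u, hu⟩} = {1} := by
    apply Set.eq_singleton_iff_unique_mem.2
    constructor
    · exact ⟨⟨1, by simpa using S.chi_one X⟩, fun u hu => rfl⟩
    · rintro _ ⟨⟨y, rfl⟩, hy⟩
      have hz : ∀ u ∈ X, zz ρ (g⁻¹ * u * g) y = zz ρ u y := fun u hu => hy u hu
      have hz2 : ∀ k : ℕ, ∀ u ∈ X, g ^ k * u * (g ^ k)⁻¹ ∈ X ∧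
          zz ρ (g ^ k * u * (g ^ k)⁻¹) y = zz ρ u y := by
        intro k
        induction k with
        | zero => intro u hu; simpa using hu
        | succ k ih =>
          intro u hu
          obtain ⟨h1, h2⟩ := ih u hu
          have e : g ^ (k + 1) * u * (g ^ (k + 1))⁻¹ = g * (g ^ k * u * (g ^ k)⁻¹) * g⁻¹ := by
            rw [pow_succ']; group
          rw [e]
          refine ⟨hgX _ h1, ?_⟩
          have h3 := hz _ (hgX _ h1)
          have e2 : g⁻¹ * (g * (g ^ k * u * (g ^ k)⁻¹) * g⁻¹) * g = g ^ k * u * (g ^ k)⁻¹ := by group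
          rw [e2] at h3
          rw [← h3, h2]
      funext u
      change zz ρ (u : G) y = 1
      have hu := u.2
      have hw : ∀ k : ℕ, ∃ w ∈ H, ((u : G) * g) ^ k = w * g ^ k ∧ zz ρ w y = zz ρ (u : G) y ^ k := by
        intro k
        induction k with
        | zero => exact ⟨1, H.one_mem, by simp, by rw [S.zz_one_left, pow_zero]⟩
        | succ k ih =>
          obtain ⟨w, hwH, hw1, hw2⟩ := ih
          obtain ⟨h1, h2⟩ := hz2 k u hu
          refine ⟨w * (g ^ k * u * (g ^ k)⁻¹), H.mul_mem hwH (hX h1), ?_, ?_⟩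
          · rw [pow_succ, hw1, pow_succ]; group
          · rw [S.zz_mul_left hwH (hX h1) y.2, hw2, h2, pow_succ]
      obtain ⟨w, hwH, hw1, hw2⟩ := hw p
      rw [hu.2.2, hgp, mul_one] at hw1
      rw [← hw1, S.zz_one_left] at hw2
      have h3 := S.zz_pow (hX hu) y.2
      have hcop : Nat.Coprime p r := (Nat.coprime_primes hp S.prime).2 hpr
      have h4 : zz ρ (u : G) y ^ (Nat.gcd p r) = 1 := by
        rw [pow_gcd_eq_one]
        exact ⟨hw2.symm, h3⟩
      rwa [Nat.Coprime.gcd_eq_one hcop, pow_one] at h4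
  rw [hfix, Set.ncard_singleton, mul_one] at hs
  have hN2 : 1 < I.ncard := by
    rw [Set.one_lt_ncard_iff hIfin]
    obtain ⟨y, hy, hne⟩ := S.exists_ne hxH hxs
    refine ⟨chi ρ X y, chi ρ X (1 : G), ⟨⟨y, hy⟩, rfl⟩, ⟨1, rfl⟩, ?_⟩
    intro h
    have h1 := congrFun h ⟨x, hxX⟩
    change zz ρ x y = zz ρ x 1 at h1
    rw [S.zz_one_right] at h1
    exact hne h1
  set N := I.ncard with hNdef
  -- arithmetic
  obtain ⟨k, hk⟩ : ∃ k, s = k + 1 := ⟨s - 1, by
    have : s ≠ 0 := by rintro rfl; omega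
    omega⟩
  subst hk
  have hp1 : p * (k + 1) = p * k + p := by ring
  have hNk : N = 1 + p * k := by omega
  have hk1 : 1 ≤ k := by
    by_contra h
    have : k = 0 := by omega
    subst this
    omega
  have h3k : 3 * k ≤ p * k := Nat.mul_le_mul_right k hp3
  have h5 : 2 * (k + 1) ≤ N := by omega
  have h6 : 2 * ((k + 1) * d) ≤ N * d := by
    calc 2 * ((k + 1) * d) = (2 * (k + 1)) * d := by ring
      _ ≤ N * d := Nat.mul_le_mul_right d h5
  omega

end setup

end Cfsg.Agent.H933
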