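import Cfsg.Agent.H933.ExtraCases

set_option autoImplicit false

/-!
The case of an element of order `r` normalising a group with commutators of order `r`.
-/

namespace Cfsg.Agent.H933

open Module

variable {F : Type*} [Field F] {V : Type*} [AddCommGroup V] [Module F V]
variable {G : Type*} [Group G] {ρ : G →* Module.End F V}

section setup

variable {H : Subgroup G} {r : ℕ} (S : Setup ρ H r)

include S

/-- Step 1: `g` commutes with every `[g, v]`. -/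
theorem Setup.equal_step1 [FiniteDimensional F V] [Finite G] {g : G}
    (hgH : ∀ u ∈ H, g * u * g⁻¹ ∈ H) (hgH' : ∀ u ∈ H, g⁻¹ * u * g ∈ H)
    (hr5 : 5 ≤ r) (hgp : g ^ r = 1) {c : F}
    (hw : Module.finrank F V < 2 * Module.finrank F (Module.End.eigenspace (ρ g) c))
    {v : G} (hv : v ∈ H) : IsZ ρ g (g * v * g⁻¹ * v⁻¹) 1 := by
  have hnt := S.nontrivial
  have hc := c_ne_zero hw
  obtain ⟨t, ht0, htg, htv⟩ := exists_common hw v
  set x := g * v * g⁻¹ * v⁻¹ with hx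
  have hxH : x ∈ H := H.mul_mem (hgH v hv) (H.inv_mem hv)
  set u₀ := g * x * g⁻¹ * x⁻¹ with hu₀
  have hu₀H : u₀ ∈ H := H.mul_mem (hgH x hxH) (H.inv_mem hxH)
  have hu₀t : ρ u₀ t = t := fix_mul (fix_conj hc htg htv) (fix_inv htv)
  by_cases hsc : ∃ b : F, ρ u₀ = b • 1
  · rw [isZ_iff_comm, one_smul]
    exact eq_one_of_fix ht0 hu₀t hsc
  exfalso
  obtain ⟨y₀, hy₀, hne⟩ := S.exists_ne hu₀H hsc
  let X : Set G := {u | u ∈ H ∧ ρ u t = t}
  have hX : X ⊆ H := fun u hu => hu.1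
  have hxX : x ∈ X := ⟨hxH, htv⟩
  have hu₀X : u₀ ∈ X := ⟨hu₀H, hu₀t⟩
  have hgX : ∀ u ∈ X, g * u * g⁻¹ ∈ X := fun u hu => ⟨hgH u hu.1, fix_conj hc htg hu.2⟩
  have hgX' : ∀ u ∈ X, g⁻¹ * u * g ∈ X := fun u hu => ⟨hgH' u hu.1, fix_conj' hc htg hu.2⟩
  obtain ⟨s, d, hN, hwd, hs⟩ := S.count hX ht0 (fun u hu => hu.2) hgH hgH' hgX hgX' S.prime hgp hc
  set I : Set (X → F) := Set.range (fun y : H => chi ρ X y) with hI
  have hIfin : I.Finite := Set.finite_range _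
  set A : Set (X → F) := {χ ∈ I | ∀ u : G, ∀ hu : u ∈ X, χ ⟨g⁻¹ * u * g, hgX' u hu⟩ = χ ⟨u, hu⟩}
    with hA
  have hAI : A ⊆ I := fun χ hχ => hχ.1
  have hAfin : A.Finite := hIfin.subset hAI
  have hζ : IsPrimitiveRoot (zz ρ u₀ y₀) r := by
    have : Fact r.Prime := ⟨S.prime⟩
    have ho : orderOf (zz ρ u₀ y₀) = r := orderOf_eq_prime (S.zz_pow hu₀H hy₀) hne
    exact ho ▸ IsPrimitiveRoot.orderOf _
  -- fixed characters are trivial on `u₀`
  have hAu : ∀ χ ∈ A, χ ⟨u₀, hu₀X⟩ = 1 := by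
    rintro _ ⟨⟨y, rfl⟩, hy⟩
    change zz ρ u₀ y = 1
    have h1 : zz ρ (g⁻¹ * (g * x * g⁻¹) * g) y = zz ρ (g * x * g⁻¹) y := hy _ (hgX x hxX)
    have e : g⁻¹ * (g * x * g⁻¹) * g = x := by group
    rw [e] at h1
    rw [hu₀, S.zz_mul_left (hgH x hxH) (H.inv_mem hxH) y.2, ← h1,
      ← S.zz_mul_left hxH (H.inv_mem hxH) y.2, mul_inv_cancel, S.zz_one_left]
  -- the injection
  have hcard : A.ncard * r ≤ I.ncard := by
    have hAf : Finite A := hAfin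
    have hIf : Finite I := hIfin
    let φ : A × Fin r → I := fun q => ⟨q.1.1 * chi ρ X (y₀ ^ (q.2 : ℕ)), by
      obtain ⟨y, hy⟩ := hAI q.1.2
      refine ⟨⟨y * y₀ ^ (q.2 : ℕ), H.mul_mem y.2 (H.pow_mem hy₀ _)⟩, ?_⟩
      change chi ρ X _ = _
      rw [S.chi_mul hX y.2 (H.pow_mem hy₀ _), ← hy]⟩
    have hφ : Function.Injective φ := by
      rintro ⟨χ, i⟩ ⟨χ', j⟩ h
      have h1 : χ.1 * chi ρ X (y₀ ^ (i : ℕ)) = χ'.1 * chi ρ X (y₀ ^ (j : ℕ)) :=
        congrArg Subtype.val h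
      have h2 := congrFun h1 ⟨u₀, hu₀X⟩
      rw [Pi.mul_apply, Pi.mul_apply, hAu _ χ.2, hAu _ χ'.2, one_mul, one_mul] at h2
      change zz ρ u₀ (y₀ ^ (i : ℕ)) = zz ρ u₀ (y₀ ^ (j : ℕ)) at h2
      rw [S.zz_pow_right hu₀H hy₀, S.zz_pow_right hu₀H hy₀] at h2
      have hij : i = j := Fin.ext (hζ.pow_inj i.2 j.2 h2)
      subst hij
      have h3 : χ = χ' := by
        apply Subtype.ext
        funext u
        have h4 := congrFun h1 u
        rw [Pi.mul_apply, Pi.mul_apply] at h4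
        exact mul_right_cancel₀ (S.zz_ne_zero (hX u.2) (H.pow_mem hy₀ _)) h4
      rw [h3]
    have := Nat.card_le_card_of_injective φ hφ
    rwa [Nat.card_prod, Nat.card_coe_set_eq, Nat.card_coe_set_eq, Nat.card_eq_fintype_card,
      Fintype.card_fin] at this
  set N := I.ncard
  set f := A.ncard
  -- arithmetic
  obtain ⟨q, rfl⟩ : ∃ q, r = q + 1 := ⟨r - 1, by omega⟩
  rw [Nat.add_sub_cancel] at hs
  have h1 : (q + 1) * ((q + 1) * s) ≤ (2 * q + 1) * N := by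
    rw [hs]
    nlinarith
  have h2 : 2 * (2 * q + 1) ≤ (q + 1) * (q + 1) := by nlinarith
  have h3 : (q + 1) * (q + 1) * (2 * (s * d)) ≤ (q + 1) * (q + 1) * (N * d) := by
    calc (q + 1) * (q + 1) * (2 * (s * d)) = 2 * (((q + 1) * ((q + 1) * s)) * d) := by ring
      _ ≤ 2 * (((2 * q + 1) * N) * d) := by gcongr
      _ = (2 * (2 * q + 1)) * (N * d) := by ring
      _ ≤ (q + 1) * (q + 1) * (N * d) := by gcongr
  have h4 : 2 * (s * d) ≤ N * d := Nat.le_of_mul_le_mul_left h3 (by positivity)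
  omega

/-- Step 2: some `v` has `[[g, v], v] ≠ 1`. -/
theorem Setup.equal_step2 [FiniteDimensional F V] [Finite G] {g : G}
    (hgH : ∀ u ∈ H, g * u * g⁻¹ ∈ H) (hgH' : ∀ u ∈ H, g⁻¹ * u * g ∈ H)
    (hr5 : 5 ≤ r) (hgp : g ^ r = 1) (hg : ¬ ∃ b : F, ρ g = b • 1) {c : F}
    (hw : Module.finrank F V < 2 * Module.finrank F (Module.End.eigenspace (ρ g) c)) :
    ∃ v ∈ H, zz ρ (g * v * g⁻¹ * v⁻¹) v ≠ 1 := by
  have hnt := S.nontrivial
  by_contra hcon
  push Not at hcon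
  obtain ⟨v, hv, hvs⟩ := S.exists_comm_not_scalar hw hg
  set N : G → G := fun v => g * v * g⁻¹ * v⁻¹ with hN
  have hNH : ∀ v ∈ H, N v ∈ H := fun v hv => H.mul_mem (hgH v hv) (H.inv_mem hv)
  obtain ⟨y, hy, hne⟩ := S.exists_ne (hNH v hv) hvs
  have hgN : ∀ v, g * v * g⁻¹ = N v * v := fun v => by simp [hN]
  -- conjugating `N v` by `g` does nothing
  have hconj : ∀ v ∈ H, ρ (g * N v * g⁻¹) = ρ (N v) := by
    intro v hv
    have h1 := S.equal_step1 hgH hgH' hr5 hgp hw hv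
    unfold IsZ at h1
    rw [one_smul] at h1
    rw [map_mul, map_mul, h1, mul_assoc, rho_mul_inv, mul_one]
  have hzconj : ∀ v ∈ H, ∀ w ∈ H, zz ρ (g * N v * g⁻¹) w = zz ρ (N v) w := by
    intro v hv w hw
    apply zz_eq
    have h1 := S.isZ (hNH v hv) hw
    unfold IsZ at h1 ⊢
    rw [hconj v hv]
    exact h1
  have hNN : ∀ v ∈ H, ∀ w ∈ H, zz ρ (N v) (N w) = 1 := by
    intro v hv w hw
    have h1 := S.zz_conj (hNH v hv) hw g
    rw [hzconj v hv _ (hgH w hw), hgN w, S.zz_mul_right (hNH v hv) (hNH w hw) hw] at h1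
    have h2 := S.zz_ne_zero (hNH v hv) hw
    exact mul_right_cancel₀ h2 (by rw [h1, one_mul])
  have hsymm : ∀ v ∈ H, ∀ w ∈ H, zz ρ (N v) w = zz ρ (N w) v := by
    intro v hv w hw
    have h1 := S.zz_conj hv hw g
    rw [hgN v, hgN w, S.zz_mul_left (hNH v hv) hv (H.mul_mem (hNH w hw) hw),
      S.zz_mul_right (hNH v hv) (hNH w hw) hw, S.zz_mul_right hv (hNH w hw) hw, hNN v hv w hw,
      one_mul] at h1
    have h2 := S.zz_ne_zero hv hw
    have h3 : zz ρ (N v) w * zz ρ v (N w) = 1 := by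
      apply mul_right_cancel₀ h2
      rw [one_mul, mul_assoc]
      exact h1
    have h4 := S.zz_symm (hNH w hw) hv
    rw [h4] at h3
    exact (mul_inv_eq_one₀ (S.zz_ne_zero (hNH w hw) hv)).1 h3
  have h1 := hcon (v * y) (H.mul_mem hv hy)
  have e : g * (v * y) * g⁻¹ * (v * y)⁻¹ = N v * (v * N y * v⁻¹) := by simp only [hN]; group
  have hyN := hNH y hy
  have hvN := hNH v hv
  have hvi := H.inv_mem hv
  have h2 : ∀ w ∈ H, zz ρ (v * N y * v⁻¹) w = zz ρ (N y) w := by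
    intro w hw
    rw [S.zz_mul_left (H.mul_mem hv hyN) hvi hw, S.zz_mul_left hv hyN hw]
    have h3 : zz ρ v w * zz ρ v⁻¹ w = 1 := by
      rw [← S.zz_mul_left hv hvi hw, mul_inv_cancel, S.zz_one_left]
    calc zz ρ v w * zz ρ (N y) w * zz ρ v⁻¹ w = (zz ρ v w * zz ρ v⁻¹ w) * zz ρ (N y) w := by ring
      _ = _ := by rw [h3, one_mul]
  rw [e, S.zz_mul_left hvN (H.mul_mem (H.mul_mem hv hyN) hvi) (H.mul_mem hv hy),
    h2 _ (H.mul_mem hv hy), S.zz_mul_right hvN hv hy, S.zz_mul_right hyN hv hy, hcon v hv,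
    hcon y hy, one_mul, mul_one, ← hsymm v hv y hy] at h1
  -- `zz (N v) y` has odd order
  have h3 := S.zz_pow hvN hy
  have hodd : Nat.Coprime 2 r := by
    rw [Nat.coprime_primes Nat.prime_two S.prime]
    omega
  have h4 : zz ρ (N v) y ^ (Nat.gcd 2 r) = 1 := by
    rw [pow_gcd_eq_one]
    exact ⟨by rw [pow_two]; exact h1, h3⟩
  rw [Nat.Coprime.gcd_eq_one hodd, pow_one] at h4
  exact hne h4

end setup

end Cfsg.Agent.H933
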